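import Cfsg.Agent.OrthNondeg17.Spread

/-! The stabiliser in Omega of a non-degenerate subspace of dimension at least three, smaller than its perp,
is maximal in odd characteristic. -/

set_option autoImplicit false
set_option linter.unusedSectionVars false

namespace CfsgLib.OrthNondeg17

open Cfsg.Geo Module CfsgLib.OrthGeo
open scoped Matrix MatrixGroups

variable {ι : Type} [Fintype ι] [DecidableEq ι] {F : Type*} [Field F] [Finite F]
variable {Q : (ι → F) → F} (hQ : IsNondegenerateQuadraticForm Q) {W : Submodule F (ι → F)}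
variable {M : Subgroup (GL ι F)}
include hQ
variable (hPM : subspaceStabilizer W ⊓ omegaGL Q ≤ M) (hMΩ : M ≤ omegaGL Q)
  (hW : ∀ x ∈ W, x ∈ perp hQ W → x = 0)
include hPM hMΩ hW

/-- An overgroup element carrying one singular point of the perp into the perp yields a mixed root element. -/
lemma mixed_of_point (hn : 5 ≤ Fintype.card ι) {g : GL ι F} (hg : g ∈ M)
    (hgP : g ∉ subspaceStabilizer W ⊓ omegaGL Q) {u : ι → F} (hu : u ∈ perp hQ W) (huQ : Q u = 0) (hu0 : u ≠ 0)
    (hgu : (g : Matrix ι ι F) *ᵥ u ∈ perp hQ W) :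
    ∃ s ∈ perp hQ W, Q s = 0 ∧ s ≠ 0 ∧ ∃ y ∈ W, y ≠ 0 ∧ EIn Q M s y := by
  classical
  have hW' := perp_rad_free hQ hW
  have hsum := finrank_perp_add hQ W
  have htop : W ⊔ perp hQ W = ⊤ := by
    have h0 : W ⊓ perp hQ W = ⊥ := (Submodule.eq_bot_iff _).2 fun x hx => hW x hx.1 hx.2
    have h1 := Submodule.finrank_sup_add_finrank_inf_eq W (perp hQ W)
    rw [h0, finrank_bot] at h1
    exact Submodule.eq_top_of_finrank_eq (by rw [finrank_fintype_fun_eq_card]; omega)
  have hsplit : ∀ v : ι → F, ∃ p ∈ W, ∃ q ∈ perp hQ W, p + q = v := fun v =>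
    Submodule.mem_sup.1 (htop ▸ Submodule.mem_top)
  have hgI := omegaGL_le (hMΩ hg)
  have hzero : ∀ z ∈ perp hQ W, ∀ w ∈ W, bform hQ z w = 0 := fun z hz w hw => by rw [b_symm hQ]; exact hz w hw
  have hin : ∀ u ∈ perp hQ W, Q u = 0 → ∀ w ∈ perp hQ W, bform hQ u w = 0 → EIn Q M u w :=
    fun u hu huQ w hw huw => (eIn_of_mem hQ huQ huw (H := subspaceStabilizer W ⊓ omegaGL Q)
      ⟨mem_subspaceStabilizer_of_le fun x hx => by
        rw [eichler_fix hQ huQ huw (hzero u hu x hx) (hzero w hw x hx)]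
        exact hx, eichler_mem_omega hQ hn huQ huw⟩).mono hPM
  set s := (g : Matrix ι ι F) *ᵥ u with hs
  have hs0 : s ≠ 0 := fun h0 => hu0 (by rw [← inv_mulVec_cancel g u, ← hs, h0, Matrix.mulVec_zero])
  have hsQ : Q s = 0 := by rw [hs, mem_isometryGroup.1 hgI, huQ]
  by_cases hout : ∃ w ∈ perp hQ W, bform hQ u w = 0 ∧ (g : Matrix ι ι F) *ᵥ w ∉ perp hQ W
  · obtain ⟨w, hw, huw, hgw⟩ := hout
    obtain ⟨p, hp, q, hq, e⟩ := hsplit ((g : Matrix ι ι F) *ᵥ w)
    have hguw : bform hQ s ((g : Matrix ι ι F) *ᵥ w) = 0 := by rw [hs, isometry_b hQ hgI, huw]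
    have hguq : bform hQ s q = 0 := by rwa [← e, map_add, hzero s hgu p hp, zero_add] at hguw
    refine ⟨s, hgu, hsQ, hs0, p, hp, fun h0 => hgw (by rw [← e, h0, zero_add]; exact hq), ?_⟩
    have := ((hin u hu huQ w hw huw).conj hQ huQ huw hg hgI).sub hQ (hin _ hgu hsQ q hq hguq) hsQ hguw hguq
    rwa [← e, add_sub_cancel_right] at this
  push Not at hout
  -- the perp of `u` in the perp is kept inside the perp
  obtain ⟨f, hf, hsf⟩ : ∃ f ∈ perp hQ W, bform hQ s f = 1 := by
    obtain ⟨f, hf, -, -, hsf⟩ := exists_singular_partner_mem hQ hW' hgu (u := 0) (Submodule.zero_mem _) hsQ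
      (map_zero _) (by simpa using hs0)
    exact ⟨f, hf, hsf⟩
  set S : (ι → F) →ₗ[F] F := bform hQ s with hS
  -- every image of a vector of `W` is a multiple of `s` plus a vector of `W`
  have himg : ∀ x ∈ W, (g : Matrix ι ι F) *ᵥ x - (bform hQ ((g : Matrix ι ι F) *ᵥ x) f) • s ∈ W := by
    intro x hx
    rw [← perp_perp hQ W]
    intro z hz
    rw [b_symm hQ z, map_sub, LinearMap.sub_apply, map_smul, LinearMap.smul_apply, smul_eq_mul]
    have hz' : z - bform hQ s z • f ∈ perp hQ W ⊓ perp hQ (Submodule.span F {s}) :=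
      ⟨Submodule.sub_mem _ hz (Submodule.smul_mem _ _ hf), (mem_perp_span_singleton hQ).2 (by
        rw [map_sub, map_smul, hsf, smul_eq_mul, mul_one, sub_self])⟩
    have hle : (perp hQ W ⊓ perp hQ (Submodule.span F {u})).map (Matrix.toLin' (g : Matrix ι ι F)) ≤
        perp hQ W ⊓ perp hQ (Submodule.span F {s}) := by
      rintro _ ⟨w, ⟨hw, hwu⟩, rfl⟩
      rw [Matrix.toLin'_apply]
      exact ⟨hout w hw ((mem_perp_span_singleton hQ).1 hwu), (mem_perp_span_singleton hQ).2 (by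
        rw [hs, isometry_b hQ hgI]; exact (mem_perp_span_singleton hQ).1 hwu)⟩
    have hinj : Function.Injective (Matrix.toLin' (g : Matrix ι ι F)) := fun x y hxy => by
      simp only [Matrix.toLin'_apply] at hxy
      rw [← inv_mulVec_cancel g x, hxy, inv_mulVec_cancel]
    have hd1 := finrank_le_inf_perp hQ (perp hQ W) (Submodule.span F {u})
    rw [finrank_span_singleton hu0] at hd1
    have hd2 : finrank F ↥(perp hQ W ⊓ perp hQ (Submodule.span F {s})) < finrank F (perp hQ W) :=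
      Submodule.finrank_lt_finrank_of_lt (lt_of_le_of_ne inf_le_left fun h => by
        have h1 := (mem_perp_span_singleton hQ).1 (h.ge hf).2
        rw [hsf] at h1
        exact one_ne_zero h1)
    have hd3 := (Submodule.equivMapOfInjective _ hinj
      (perp hQ W ⊓ perp hQ (Submodule.span F {u}))).finrank_eq
    obtain ⟨w, ⟨hw, -⟩, hwe⟩ := (Submodule.eq_of_le_of_finrank_le hle (by omega)).ge hz'
    rw [Matrix.toLin'_apply] at hwe
    have h1 : bform hQ ((g : Matrix ι ι F) *ᵥ x) (z - bform hQ s z • f) = 0 := by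
      rw [← hwe, isometry_b hQ hgI, b_symm hQ]
      exact hzero w hw x hx
    rw [map_sub, map_smul, smul_eq_mul] at h1
    linear_combination h1
  -- the shift
  let T : (ι → F) →ₗ[F] (ι → F) := Matrix.toLin' (g : Matrix ι ι F) -
    ((bform hQ).flip f ∘ₗ Matrix.toLin' (g : Matrix ι ι F)).smulRight s
  have hT : ∀ x, T x = (g : Matrix ι ι F) *ᵥ x - (bform hQ ((g : Matrix ι ι F) *ᵥ x) f) • s := fun x => by
    simp [T]
  have hTinj : ∀ x ∈ W, T x = 0 → x = 0 := by
    intro x hx h0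
    rw [hT, sub_eq_zero] at h0
    refine hW x hx ?_
    have e : x = (bform hQ ((g : Matrix ι ι F) *ᵥ x) f) • u := by
      have h1 := congrArg (fun z => ((g⁻¹ : GL ι F) : Matrix ι ι F) *ᵥ z) h0
      rwa [inv_mulVec_cancel, Matrix.mulVec_smul, hs, inv_mulVec_cancel] at h1
    rw [e]
    exact Submodule.smul_mem _ _ hu
  -- a vector of `W` representing the shift
  obtain ⟨y, hy, hyx⟩ : ∃ y ∈ W, ∀ x ∈ W, bform hQ y (T x) = bform hQ ((g : Matrix ι ι F) *ᵥ x) f := by
    let TW : W →ₗ[F] W := (T.domRestrict W).codRestrict W fun x => by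
      rw [LinearMap.domRestrict_apply, hT]; exact himg x x.2
    have hTW : ∀ x : W, (TW x : ι → F) = T x := fun x => rfl
    have hinj : Function.Injective TW := by
      rw [← LinearMap.ker_eq_bot, Submodule.eq_bot_iff]
      intro x hx
      rw [LinearMap.mem_ker] at hx
      exact Subtype.ext (hTinj x x.2 (by rw [← hTW, hx]; rfl))
    let e := LinearEquiv.ofBijective TW ⟨hinj, LinearMap.injective_iff_surjective.1 hinj⟩
    let φ : W →ₗ[F] F :=
      ((bform hQ).flip f ∘ₗ Matrix.toLin' (g : Matrix ι ι F) ∘ₗ W.subtype) ∘ₗ e.symm.toLinearMap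
    let B : W →ₗ[F] (W →ₗ[F] F) := ((bform hQ).compl₂ W.subtype).domRestrict W
    have hBinj : Function.Injective B := by
      rw [← LinearMap.ker_eq_bot, Submodule.eq_bot_iff]
      intro x hx
      rw [LinearMap.mem_ker] at hx
      refine Subtype.ext (hW x x.2 fun z hz => ?_)
      have h1 := LinearMap.congr_fun hx ⟨z, hz⟩
      simp only [B, LinearMap.domRestrict_apply, LinearMap.compl₂_apply, Submodule.subtype_apply,
        LinearMap.zero_apply] at h1
      rw [b_symm hQ]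
      exact h1
    obtain ⟨y, hy⟩ := (LinearMap.injective_iff_surjective_of_finrank_eq_finrank
      (by rw [Subspace.dual_finrank_eq])).1 hBinj φ
    refine ⟨y, y.2, fun x hx => ?_⟩
    have h1 := LinearMap.congr_fun hy (e ⟨x, hx⟩)
    simp only [B, φ, LinearMap.domRestrict_apply, LinearMap.compl₂_apply, Submodule.subtype_apply,
      LinearMap.comp_apply, LinearEquiv.coe_coe, LinearEquiv.symm_apply_apply] at h1
    rwa [show ((e ⟨x, hx⟩ : W) : ι → F) = T x from rfl] at h1
  have hsy : bform hQ s y = 0 := hzero s hgu y hy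
  have hE : ∀ x ∈ W, (eichler hQ hsQ hsy : Matrix ι ι F) *ᵥ T x = (g : Matrix ι ι F) *ᵥ x := by
    intro x hx
    have hTx : T x ∈ W := hT x ▸ himg x hx
    rw [eichler_mulVec hQ, hzero s hgu _ hTx, hyx x hx, hT, zero_smul, mul_zero, zero_smul, sub_zero, sub_zero,
      sub_add_cancel]
  set k := (eichler hQ hsQ hsy)⁻¹ * g with hk
  have hEI := omegaGL_le (eichler_mem_omega hQ hn hsQ hsy)
  have hkW : ∀ x ∈ W, (k : Matrix ι ι F) *ᵥ x ∈ W := by
    intro x hx
    rw [hk, Units.val_mul, ← Matrix.mulVec_mulVec, ← hE x hx, inv_mulVec_cancel, hT]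
    exact himg x hx
  have hkP : k ∈ subspaceStabilizer W ⊓ omegaGL Q :=
    ⟨mem_subspaceStabilizer_of_le hkW, (omegaGL Q).mul_mem ((omegaGL Q).inv_mem (eichler_mem_omega hQ hn hsQ hsy)) (hMΩ hg)⟩
  refine ⟨s, hgu, hsQ, hs0, y, hy, fun h0 => hgP ?_, ?_⟩
  · subst h0
    rw [show g = k by
      rw [hk, show eichler hQ hsQ hsy = 1 from Units.ext (eichlerMat_zero hQ (u := s)), inv_one, one_mul]]
    exact hkP
  · refine eIn_of_mem hQ hsQ hsy ?_
    rw [show eichler hQ hsQ hsy = g * k⁻¹ by rw [hk, mul_inv_rev, inv_inv, mul_inv_cancel_left]]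
    exact mul_mem hg (inv_mem (hPM hkP))

/-- Some overgroup element outside the stabiliser carries a singular point of the perp into the perp. -/
lemma exists_point (h2 : (2 : F) ≠ 0) (hn : 5 ≤ Fintype.card ι)
    (hd4 : 4 ≤ finrank F (perp hQ W)) (hlt : finrank F W < finrank F (perp hQ W))
    {g : GL ι F} (hg : g ∈ M) (hgP : g ∉ subspaceStabilizer W ⊓ omegaGL Q) :
    ∃ x ∈ M, x ∉ subspaceStabilizer W ⊓ omegaGL Q ∧ ∃ u ∈ perp hQ W, Q u = 0 ∧ u ≠ 0 ∧
      (x : Matrix ι ι F) *ᵥ u ∈ perp hQ W := by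
  classical
  by_contra hno
  push Not at hno
  have hW' := perp_rad_free hQ hW
  have hsum := finrank_perp_add hQ W
  have htop : W ⊔ perp hQ W = ⊤ := by
    have h0 : W ⊓ perp hQ W = ⊥ := (Submodule.eq_bot_iff _).2 fun x hx => hW x hx.1 hx.2
    have h1 := Submodule.finrank_sup_add_finrank_inf_eq W (perp hQ W)
    rw [h0, finrank_bot] at h1
    exact Submodule.eq_top_of_finrank_eq (by rw [finrank_fintype_fun_eq_card]; omega)
  have hsplit : ∀ v : ι → F, ∃ p ∈ W, ∃ q ∈ perp hQ W, p + q = v := fun v =>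
    Submodule.mem_sup.1 (htop ▸ Submodule.mem_top)
  have hgI := omegaGL_le (hMΩ hg)
  have hzero : ∀ z ∈ perp hQ W, ∀ w ∈ W, bform hQ z w = 0 := fun z hz w hw => by rw [b_symm hQ]; exact hz w hw
  have hin : ∀ u ∈ perp hQ W, Q u = 0 → ∀ w ∈ perp hQ W, ∀ huw : bform hQ u w = 0, ∀ huQ' : Q u = 0,
      eichler hQ huQ' huw ∈ M :=
    fun u hu _ w hw huw huQ => hPM ⟨mem_subspaceStabilizer_of_le fun x hx => by
      rw [eichler_fix hQ huQ huw (hzero u hu x hx) (hzero w hw x hx)]
      exact hx, eichler_mem_omega hQ hn huQ huw⟩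
  obtain ⟨u, hu, hu0, huQ⟩ := exists_singular hQ (S := perp hQ W) (by omega)
  set s := (g : Matrix ι ι F) *ᵥ u with hs
  have hsV : s ∉ perp hQ W := hno g hg hgP u hu huQ hu0
  have hsQ : Q s = 0 := by rw [hs, mem_isometryGroup.1 hgI, huQ]
  -- a non-singular vector of `u⊥` in the perp whose image lies outside `W`
  obtain ⟨w, hw, huw, hwQ, hgw⟩ : ∃ w ∈ perp hQ W, bform hQ u w = 0 ∧ Q w ≠ 0 ∧
      (s ∈ W → (g : Matrix ι ι F) *ᵥ w ∉ W) := by
    obtain ⟨w1, ⟨hw1, hw1u⟩, hw1Q⟩ : ∃ w ∈ perp hQ W ⊓ perp hQ (Submodule.span F {u}), Q w ≠ 0 := by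
      by_contra hcon
      push Not at hcon
      set T := perp hQ W ⊓ perp hQ (Submodule.span F {u}) with hTdef
      have hd1 := finrank_le_inf_perp hQ (perp hQ W) (Submodule.span F {u})
      rw [finrank_span_singleton hu0] at hd1
      obtain ⟨f, hf, hfQ, -, huf⟩ := exists_singular_partner_mem hQ hW' hu (u := 0) (Submodule.zero_mem _) huQ
        (map_zero _) (by simpa using hu0)
      obtain ⟨x, ⟨hxT, hxf⟩, hx0⟩ : ∃ x ∈ T ⊓ perp hQ (Submodule.span F {f}), x ≠ 0 := by
        refine Submodule.exists_mem_ne_zero_of_ne_bot fun h0 => ?_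
        have := finrank_le_inf_perp hQ T (Submodule.span F {f})
        have h4 : finrank F (Submodule.span F ({f} : Set (ι → F))) ≤ 1 := (finrank_span_le_card _).trans (by simp)
        rw [h0, finrank_bot] at this
        rw [← hTdef] at hd1
        omega
      refine hx0 (hW' x hxT.1 fun z hz => ?_)
      have hz' : z - bform hQ u z • f ∈ T := ⟨Submodule.sub_mem _ hz (Submodule.smul_mem _ _ hf),
        (mem_perp_span_singleton hQ).2 (by rw [map_sub, map_smul, huf, smul_eq_mul, mul_one, sub_self])⟩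
      have h1 : bform hQ (z - bform hQ u z • f) x = 0 := (le_perp_self hQ hcon hxT) _ hz'
      rw [map_sub, LinearMap.sub_apply, map_smul, LinearMap.smul_apply, (mem_perp_span_singleton hQ).1 hxf,
        smul_zero, sub_zero] at h1
      exact h1
    replace hw1u := (mem_perp_span_singleton hQ).1 hw1u
    by_cases hsW : s ∈ W
    swap
    · exact ⟨w1, hw1, hw1u, hw1Q, fun h => absurd h hsW⟩
    by_cases hgw1 : (g : Matrix ι ι F) *ᵥ w1 ∈ W
    swap
    · exact ⟨w1, hw1, hw1u, hw1Q, fun _ => hgw1⟩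
    obtain ⟨w0, hw0, hw0u, hgw0⟩ : ∃ w ∈ perp hQ W, bform hQ u w = 0 ∧ (g : Matrix ι ι F) *ᵥ w ∉ W := by
      by_contra hcon
      push Not at hcon
      have hinj : Function.Injective (Matrix.toLin' (g : Matrix ι ι F)) := fun x y hxy => by
        simp only [Matrix.toLin'_apply] at hxy
        rw [← inv_mulVec_cancel g x, hxy, inv_mulVec_cancel]
      have hle : (perp hQ W ⊓ perp hQ (Submodule.span F {u})).map (Matrix.toLin' (g : Matrix ι ι F)) ≤
          W ⊓ perp hQ (Submodule.span F {s}) := by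
        rintro _ ⟨w, ⟨hw, hwu⟩, rfl⟩
        rw [Matrix.toLin'_apply]
        exact ⟨hcon w hw ((mem_perp_span_singleton hQ).1 hwu), (mem_perp_span_singleton hQ).2 (by
          rw [hs, isometry_b hQ hgI]; exact (mem_perp_span_singleton hQ).1 hwu)⟩
      have hs0 : s ≠ 0 := fun h0 => hsV (h0 ▸ zero_mem _)
      have hlt' : W ⊓ perp hQ (Submodule.span F {s}) < W := lt_of_le_of_ne inf_le_left fun h => hs0 (hW s hsW
        fun z hz => by rw [b_symm hQ]; exact (mem_perp_span_singleton hQ).1 (h.ge hz).2)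
      have hd1 := finrank_le_inf_perp hQ (perp hQ W) (Submodule.span F {u})
      rw [finrank_span_singleton hu0] at hd1
      have hd2 := Submodule.finrank_mono hle
      rw [← (Submodule.equivMapOfInjective _ hinj _).finrank_eq] at hd2
      have hd3 := Submodule.finrank_lt_finrank_of_lt hlt'
      omega
    by_cases hp : Q (w0 + w1) = 0
    swap
    · refine ⟨w0 + w1, Submodule.add_mem _ hw0 hw1, by rw [map_add, hw0u, hw1u, add_zero], hp, fun _ h => hgw0 ?_⟩
      have := W.sub_mem h hgw1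
      rwa [Matrix.mulVec_add, add_sub_cancel_right] at this
    by_cases h0 : Q w0 = 0
    swap
    · exact ⟨w0, hw0, hw0u, h0, fun _ => hgw0⟩
    refine ⟨w0 - w1, Submodule.sub_mem _ hw0 hw1, by rw [map_sub, hw0u, hw1u, sub_zero], fun hm => hw1Q ?_,
      fun _ h => hgw0 ?_⟩
    · rw [q_add hQ] at hp
      rw [q_sub hQ] at hm
      have : (2 : F) * Q w1 = 0 := by linear_combination hp + hm - 2 * h0
      exact (mul_eq_zero.1 this).resolve_left h2
    · have := W.add_mem h hgw1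
      rwa [Matrix.mulVec_sub, sub_add_cancel] at this
  set b' := (g : Matrix ι ι F) *ᵥ w with hb'
  have hsb : bform hQ s b' = 0 := by rw [hs, hb', isometry_b hQ hgI, huw]
  have hb'Q : Q b' = Q w := by rw [hb', mem_isometryGroup.1 hgI]
  have hX : EIn Q M s b' := (eIn_of_mem hQ huQ huw (hin u hu huQ w hw huw huQ)).conj hQ huQ huw hg hgI
  obtain ⟨p₁, hp₁, q₁, hq₁, e₁⟩ := hsplit s
  obtain ⟨p₂, hp₂, q₂, hq₂, e₂⟩ := hsplit b'
  have hp₁0 : p₁ ≠ 0 := fun h0 => hsV (by rw [← e₁, h0, zero_add]; exact hq₁)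
  have hbs : ∀ x ∈ perp hQ W, bform hQ s x = bform hQ q₁ x := fun x hx => by
    rw [← e₁, map_add, LinearMap.add_apply, hx p₁ hp₁, zero_add]
  -- a root element at `s` whose second vector keeps the perp is in the stabiliser only trivially
  have hstab : ∀ x : GL ι F, x ∈ subspaceStabilizer W ⊓ omegaGL Q → ∀ v ∈ perp hQ W,
      (x : Matrix ι ι F) *ᵥ v ∈ perp hQ W := fun x hx v hv =>
    (mem_subspaceStabilizer.1 (mem_stab_perp hQ (omegaGL_le hx.2) hx.1) v).1 hv
  have hxP : eichler hQ hsQ hsb ∉ subspaceStabilizer W ⊓ omegaGL Q := by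
    intro hxP
    have hkey : ∀ y ∈ perp hQ W,
        (bform hQ q₂ y - Q w * bform hQ q₁ y) • p₁ - bform hQ q₁ y • p₂ = 0 := by
      intro y hy
      have h1 := Submodule.sub_mem _ (hstab _ hxP y hy) hy
      have hb2 : bform hQ b' y = bform hQ q₂ y := by
        rw [← e₂, map_add, LinearMap.add_apply, hy p₂ hp₂, zero_add]
      rw [eichler_mulVec hQ, hbs y hy, hb2, hb'Q, ← e₁, ← e₂] at h1
      refine hW _ (W.sub_mem (W.smul_mem _ hp₁) (W.smul_mem _ hp₂)) ?_
      have h3 := Submodule.sub_mem _ h1 (Submodule.sub_mem _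
        (Submodule.smul_mem _ (bform hQ q₂ y - Q w * bform hQ q₁ y) hq₁) (Submodule.smul_mem _ (bform hQ q₁ y) hq₂))
      convert h3 using 1
      module
    by_cases hdep : p₂ ∈ Submodule.span F {p₁}
    · obtain ⟨k, hk⟩ := Submodule.mem_span_singleton.1 hdep
      have hq : q₂ - (Q w + k) • q₁ = 0 := hW' _ (Submodule.sub_mem _ hq₂ (Submodule.smul_mem _ _ hq₁))
        fun y hy => by
          have h1 := hkey y hy
          rw [← hk, smul_smul, ← sub_smul, smul_eq_zero] at h1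
          rw [b_symm hQ, map_sub, LinearMap.sub_apply, map_smul, LinearMap.smul_apply, smul_eq_mul]
          linear_combination h1.resolve_right hp₁0
      rw [sub_eq_zero] at hq
      have hpq : bform hQ p₁ q₁ = 0 := hq₁ p₁ hp₁
      have hQs : Q p₁ + Q q₁ = 0 := by
        rw [← e₁, q_add hQ, hpq, add_zero] at hsQ; exact hsQ
      have h0 := hsb
      rw [← e₁, ← e₂, ← hk, hq] at h0
      simp only [map_add, map_smul, LinearMap.add_apply, smul_eq_mul, b_self hQ, hpq, b_symm hQ q₁ p₁] at h0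
      have h4 : 2 * Q w * Q q₁ = 0 := by linear_combination h0 - 2 * k * hQs
      have hq0 : Q q₁ = 0 := (mul_eq_zero.1 h4).resolve_left (mul_ne_zero h2 hwQ)
      have h5 := hb'Q
      rw [← e₂, ← hk, hq, q_add hQ, q_smul hQ, q_smul hQ] at h5
      simp only [map_smul, LinearMap.smul_apply, hpq, hq0] at h5
      rw [hq0, add_zero] at hQs
      rw [hQs] at h5
      exact hwQ (by simpa using h5.symm)
    · have hb0 : ∀ y ∈ perp hQ W, bform hQ q₁ y = 0 := fun y hy => by
        by_contra h0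
        exact hdep (Submodule.mem_span_singleton.2 ⟨(bform hQ q₁ y)⁻¹ * (bform hQ q₂ y - Q w * bform hQ q₁ y), by
          rw [← smul_smul, (sub_eq_zero.1 (hkey y hy)), smul_smul, inv_mul_cancel₀ h0, one_smul]⟩)
      have hq10 : q₁ = 0 := hW' q₁ hq₁ fun y hy => by rw [b_symm hQ]; exact hb0 y hy
      have hq20 : q₂ = 0 := hW' q₂ hq₂ fun y hy => by
        have h1 := hkey y hy
        rw [hb0 y hy, mul_zero, sub_zero, zero_smul, sub_zero, smul_eq_zero] at h1
        rw [b_symm hQ]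
        exact h1.resolve_right hp₁0
      exact hgw (by rw [← e₁, hq10, add_zero]; exact hp₁) (by rw [← e₂, hq20, add_zero]; exact hp₂)
  -- a singular point of the perp orthogonal to `s`
  obtain ⟨v, ⟨hv, hvq⟩, hv0, hvQ⟩ := exists_singular hQ (S := perp hQ W ⊓ perp hQ (Submodule.span F {q₁})) (by
    have := finrank_le_inf_perp hQ (perp hQ W) (Submodule.span F {q₁})
    have h4 : finrank F (Submodule.span F ({q₁} : Set (ι → F))) ≤ 1 := (finrank_span_le_card _).trans (by simp)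
    omega)
  have hsv : bform hQ s v = 0 := by rw [hbs v hv]; exact (mem_perp_span_singleton hQ).1 hvq
  by_cases hbv : bform hQ b' v = 0
  · refine hno _ (hX.mem hQ hsQ hsb) hxP v hv hvQ hv0 ?_
    rw [eichler_fix hQ hsQ hsb hsv hbv]
    exact hv
  obtain ⟨w', ⟨hw', hw'P⟩, hw'N⟩ : ∃ w' ∈ perp hQ W ⊓ perp hQ (Submodule.span F {q₁} ⊔ Submodule.span F {v}),
      w' ∉ Submodule.span F {v} := by
    refine SetLike.not_le_iff_exists.1 fun hle => ?_
    have := Submodule.finrank_mono hle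
    have := finrank_le_inf_perp hQ (perp hQ W) (Submodule.span F {q₁} ⊔ Submodule.span F {v})
    have := finrank_span_pair_le hQ q₁ v
    have h4 : finrank F (Submodule.span F ({v} : Set (ι → F))) ≤ 1 := (finrank_span_le_card _).trans (by simp)
    omega
  obtain ⟨hqw', hvw'⟩ := (mem_perp_pair hQ).1 hw'P
  have hsw' : bform hQ s w' = 0 := by rw [hbs w' hw', hqw']
  have hh := hin v hv hvQ w' hw' hvw' hvQ
  have hz := hX.displacement hQ hsQ hsb hh (omegaGL_le (hMΩ hh))
    (eichler_fix hQ hvQ hvw' (by rw [b_symm hQ, hsv]) (by rw [b_symm hQ, hsw']))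
  rw [eichler_mulVec hQ] at hz
  set z := b' + bform hQ w' b' • v - bform hQ v b' • w' - (Q w' * bform hQ v b') • v - b' with hzdef
  have hze : z = (bform hQ w' b' - Q w' * bform hQ v b') • v - bform hQ v b' • w' := by rw [hzdef]; module
  have hzV : z ∈ perp hQ W := hze ▸ Submodule.sub_mem _ (Submodule.smul_mem _ _ hv) (Submodule.smul_mem _ _ hw')
  have hsz : bform hQ s z = 0 := by rw [hze, map_sub, map_smul, map_smul, hsv, hsw', smul_zero, smul_zero, sub_zero]
  have hzv : bform hQ z v = 0 := by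
    rw [hze, map_sub, LinearMap.sub_apply, map_smul, LinearMap.smul_apply, map_smul, LinearMap.smul_apply,
      b_self hQ, hvQ, b_symm hQ w' v, hvw']
    simp
  refine hno _ (hz.mem hQ hsQ hsz) (fun hP => ?_) v hv hvQ hv0 (by
    rw [eichler_fix hQ hsQ hsz hsv hzv]; exact hv)
  -- the displacement is non-trivial on the perp
  have hqz : z = Q z • q₁ := sub_eq_zero.1 (hW' _ (Submodule.sub_mem _ hzV (Submodule.smul_mem _ _ hq₁))
    fun y hy => by
      have h1 := Submodule.sub_mem _ (hstab _ hP y hy) hy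
      rw [eichler_mulVec hQ, hbs y hy] at h1
      have h3 : (bform hQ z y - Q z * bform hQ q₁ y) • p₁ ∈ perp hQ W := by
        have h4 := Submodule.sub_mem _ h1 (Submodule.sub_mem _
          (Submodule.smul_mem _ (bform hQ z y - Q z * bform hQ q₁ y) hq₁) (Submodule.smul_mem _ (bform hQ q₁ y) hzV))
        convert h4 using 1
        rw [← e₁]
        module
      have h5 := hW _ (W.smul_mem _ hp₁) h3
      rw [smul_eq_zero] at h5
      rw [b_symm hQ, map_sub, LinearMap.sub_apply, map_smul, LinearMap.smul_apply, smul_eq_mul]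
      exact h5.resolve_right hp₁0)
  have hz0 : z = 0 := by
    have h1 : bform hQ q₁ z = 0 := by rw [← hbs z hzV, hsz]
    have h3 : bform hQ z z = 0 := by
      nth_rw 1 [hqz]
      rw [map_smul, LinearMap.smul_apply, h1, smul_zero]
    rw [b_self hQ] at h3
    rw [hqz, (mul_eq_zero.1 h3).resolve_left h2, zero_smul]
  rw [hze, sub_eq_zero] at hz0
  have hvb : bform hQ v b' ≠ 0 := by rwa [b_symm hQ]
  exact hw'N (Submodule.mem_span_singleton.2
    ⟨(bform hQ v b')⁻¹ * (bform hQ w' b' - Q w' * bform hQ v b'), by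
      rw [← smul_smul, hz0, smul_smul, inv_mul_cancel₀ hvb, one_smul]⟩)

omit hPM hMΩ

/-- The stabiliser in Omega of a non-degenerate subspace of dimension at least three, smaller than its perp,
is maximal in odd characteristic. -/
theorem nondeg_odd_isMaximal (h2 : (2 : F) ≠ 0) (hk : 3 ≤ finrank F W)
    (hlt : finrank F W < finrank F (perp hQ W)) :
    IsMaximalIn (omegaGL Q) (subspaceStabilizer W ⊓ omegaGL Q) := by
  classical
  have hsum := finrank_perp_add hQ W
  have hn : 5 ≤ Fintype.card ι := by omega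
  have hd3 : 3 ≤ finrank F (perp hQ W) := by omega
  have htop : W ⊔ perp hQ W = ⊤ := by
    have h0 : W ⊓ perp hQ W = ⊥ := (Submodule.eq_bot_iff _).2 fun x hx => hW x hx.1 hx.2
    have h1 := Submodule.finrank_sup_add_finrank_inf_eq W (perp hQ W)
    rw [h0, finrank_bot] at h1
    exact Submodule.eq_top_of_finrank_eq (by rw [finrank_fintype_fun_eq_card]; omega)
  have hW' := perp_rad_free hQ hW
  have hsplit : ∀ v : ι → F, ∃ p ∈ W, ∃ q ∈ perp hQ W, p + q = v := fun v =>
    Submodule.mem_sup.1 (htop ▸ Submodule.mem_top)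
  have hzero : ∀ z ∈ perp hQ W, ∀ w ∈ W, bform hQ z w = 0 := fun z hz w hw => by rw [b_symm hQ]; exact hz w hw
  obtain ⟨y₀, hy₀, hy₀0⟩ := Submodule.exists_mem_ne_zero_of_ne_bot (p := W) (fun h => by
    rw [h, finrank_bot] at hk; omega)
  obtain ⟨s₀, hs₀, hs₀0, hs₀Q⟩ := exists_singular hQ (S := perp hQ W) hd3
  refine ⟨lt_of_le_not_ge inf_le_right fun hle => ?_, fun M hPM hMΩ => ?_⟩
  · have hsy : bform hQ s₀ y₀ = 0 := hzero s₀ hs₀ y₀ hy₀
    obtain ⟨x, hx, hxy⟩ := exists_mem_b_ne_zero hQ (fun h => hy₀0 (hW y₀ hy₀ h))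
    have h1 := (mem_subspaceStabilizer.1 (hle (eichler_mem_omega hQ hn hs₀Q hsy)).1 x).1 hx
    rw [eichler_mulVec hQ, hzero s₀ hs₀ x hx, b_symm hQ y₀ x] at h1
    simp only [zero_smul, mul_zero, sub_zero] at h1
    have h3 : bform hQ x y₀ • s₀ ∈ W := by simpa using W.sub_mem h1 hx
    exact hs₀0 (hW s₀ ((W.smul_mem_iff hxy).1 h3) hs₀)
  by_cases hMP : M ≤ subspaceStabilizer W ⊓ omegaGL Q
  · exact Or.inl (le_antisymm hMP hPM)
  refine Or.inr (le_antisymm hMΩ ?_)
  have hMI : M ≤ Cfsg.isometryGroup F Q := hMΩ.trans omegaGL_le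
  have hin : ∀ u ∈ perp hQ W, Q u = 0 → ∀ w ∈ perp hQ W, bform hQ u w = 0 → EIn Q M u w :=
    fun u hu huQ w hw huw => (eIn_of_mem hQ huQ huw (H := subspaceStabilizer W ⊓ omegaGL Q)
      ⟨mem_subspaceStabilizer_of_le fun x hx => by
        rw [eichler_fix hQ huQ huw (hzero u hu x hx) (hzero w hw x hx)]
        exact hx, eichler_mem_omega hQ hn huQ huw⟩).mono hPM
  obtain ⟨g, hgM, hgP⟩ := SetLike.not_le_iff_exists.1 hMP
  obtain ⟨x, hx, hxP, u, hu, huQ, hu0, hxu⟩ := exists_point hQ hPM hMΩ hW h2 hn (by omega) hlt hgM hgP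
  obtain ⟨s, hs, hsQ, hs0, y, hy, hy0, hsy⟩ := mixed_of_point hQ hPM hMΩ hW hn hx hxP hu huQ hu0 hxu
  have hfill := mixed_fill_all hQ hMI hin hPM hW h2 hn hk hd3 hs hy hy0 hsQ hs0 hsy
  have hroot : ∀ v ∈ perp hQ W, Q v = 0 → ∀ x, bform hQ v x = 0 → EIn Q M v x := by
    intro v hv hvQ x hvx
    obtain ⟨p, hp, q, hq, rfl⟩ := hsplit x
    have hvp : bform hQ v p = 0 := hzero v hv p hp
    have hvq : bform hQ v q = 0 := by rwa [map_add, hvp, zero_add] at hvx
    exact (hfill v hv hvQ p hp).add hQ (hin v hv hvQ q hq hvq) hvQ hvp hvq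
  refine omega_le_of_root_vectors hQ hn hMI
    {z | ∃ h ∈ M, ∃ v ∈ perp hQ W, Q v = 0 ∧ z = (h : Matrix ι ι F) *ᵥ v} ?_ ?_
  · rintro _ ⟨h, hhM, v, hv, hvQ, rfl⟩
    have hhI := hMI hhM
    refine ⟨by rw [mem_isometryGroup.1 hhI, hvQ], fun x hx => ?_⟩
    obtain ⟨x', rfl⟩ : ∃ x', x = (h : Matrix ι ι F) *ᵥ x' := ⟨_, (mulVec_inv_cancel h x).symm⟩
    rw [isometry_b hQ hhI] at hx
    exact (hroot v hv hvQ x' hx).conj hQ hvQ hx hhM hhI
  · intro u _ hu0
    obtain ⟨p, hp, q, hq, rfl⟩ := hsplit u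
    have hTn : ∀ x ∈ perp hQ W, x ≠ 0 → ∃ y ∈ perp hQ W, bform hQ x y ≠ 0 := fun x hx hx0 => by
      obtain ⟨y, hy, hyx⟩ := exists_mem_b_ne_zero hQ (fun h => hx0 (hW' x hx h))
      exact ⟨y, hy, by rw [b_symm hQ]; exact hyx⟩
    by_cases hq0 : q = 0
    · subst hq0
      rw [add_zero] at hu0 ⊢
      obtain ⟨y', hy', hy'p⟩ := exists_mem_b_ne_zero hQ (fun h => hu0 (hW p hp h))
      obtain ⟨f, hf, hfQ, -, hs₀f⟩ := exists_singular_partner_mem hQ hW' hs₀ (u := 0) (Submodule.zero_mem _) hs₀Q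
        (map_zero _) (by simpa using hs₀0)
      have hsy' : bform hQ s₀ y' = 0 := hzero s₀ hs₀ y' hy'
      have hh := (hfill s₀ hs₀ hs₀Q y' hy').mem hQ hs₀Q hsy'
      have hhI := hMI hh
      refine ⟨_, ⟨_, hh, f, hf, hfQ, rfl⟩, _, ⟨_, hh, s₀, hs₀, hs₀Q, rfl⟩, ?_, ?_⟩
      · rw [isometry_b hQ hhI, b_symm hQ, hs₀f]; exact one_ne_zero
      · rw [eichler_mulVec hQ, hs₀f, b_symm hQ y' f]
        simp only [map_sub, map_add, map_smul, LinearMap.sub_apply, LinearMap.add_apply, LinearMap.smul_apply,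
          b_symm hQ f y', hf y' hy', b_symm hQ f p, hf p hp, b_symm hQ s₀ p, hs₀ p hp, smul_eq_mul]
        simpa using hy'p
    · obtain ⟨z, hz, hzQ, hzq⟩ := exists_singular_b_ne_zero hQ hd3 hq hTn hq0
      have hz0 : z ≠ 0 := fun h0 => hzq (by rw [h0, map_zero, LinearMap.zero_apply])
      obtain ⟨v, hv, hvQ, -, hzv⟩ := exists_singular_partner_mem hQ hW' hz (u := 0) (Submodule.zero_mem _) hzQ
        (map_zero _) (by simpa using hz0)
      refine ⟨z, ⟨1, M.one_mem, z, hz, hzQ, by simp⟩, v, ⟨1, M.one_mem, v, hv, hvQ, by simp⟩,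
        by rw [hzv]; exact one_ne_zero, ?_⟩
      rw [map_add, b_symm hQ z p, hz p hp, zero_add]
      exact hzq

end CfsgLib.OrthNondeg17
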