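import Cfsg.Agent.OrthGeo.NondegAny

/-! Mixed root elements for a non-degenerate subspace, without singular lines in its perp. -/

set_option autoImplicit false
set_option linter.unusedSectionVars false

namespace CfsgLib.OrthNondeg17

open Cfsg.Geo Module CfsgLib.OrthGeo
open scoped Matrix MatrixGroups

variable {ι : Type} [Fintype ι] [DecidableEq ι] {F : Type*} [Field F] [Finite F]
variable {Q : (ι → F) → F} (hQ : IsNondegenerateQuadraticForm Q) {W : Submodule F (ι → F)}
variable {M : Subgroup (GL ι F)}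
include hQ


/-- A singular vector non-orthogonal to two given singular vectors. -/
lemma exists_third {U : Submodule F (ι → F)} (hU : ∀ x ∈ U, x ∈ perp hQ U → x = 0) {a b : ι → F}
    (ha : a ∈ U) (hb : b ∈ U) (haQ : Q a = 0) (hbQ : Q b = 0) (ha0 : a ≠ 0) (hb0 : b ≠ 0)
    (hd3 : 3 ≤ finrank F U) :
    ∃ u ∈ U, Q u = 0 ∧ bform hQ u a ≠ 0 ∧ bform hQ u b ≠ 0 := by
  classical
  by_cases hab : bform hQ a b = 0
  · by_cases hdep : a ∈ Submodule.span F {b}
    · obtain ⟨t, rfl⟩ := Submodule.mem_span_singleton.1 hdep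
      have ht : t ≠ 0 := fun h => ha0 (by rw [h, zero_smul])
      obtain ⟨f, hf, hfQ, -, hbf⟩ := exists_singular_partner_mem hQ hU hb (u := 0) U.zero_mem hbQ
        (map_zero _) (by simpa using hb0)
      refine ⟨f, hf, hfQ, ?_, by rw [b_symm hQ, hbf]; exact one_ne_zero⟩
      rw [map_smul, b_symm hQ f b, hbf, smul_eq_mul, mul_one]
      exact ht
    have hdep' : b ∉ Submodule.span F {a} := fun h => by
      obtain ⟨t, rfl⟩ := Submodule.mem_span_singleton.1 h
      have ht : t ≠ 0 := fun h => hb0 (by rw [h, zero_smul])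
      exact hdep (Submodule.mem_span_singleton.2 ⟨t⁻¹, by rw [smul_smul, inv_mul_cancel₀ ht, one_smul]⟩)
    obtain ⟨f, hf, hfQ, hbf, haf⟩ := exists_singular_partner_mem hQ hU ha hb haQ hab hdep
    obtain ⟨f', hf', hf'Q, haf', hbf'⟩ := exists_singular_partner_mem hQ hU hb ha hbQ
      (by rw [b_symm hQ]; exact hab) hdep'
    refine ⟨f + f' - bform hQ f f' • a, U.sub_mem (U.add_mem hf hf') (U.smul_mem _ ha), ?_, ?_, ?_⟩
    · rw [q_sub hQ, q_add hQ, q_smul hQ, hfQ, hf'Q, haQ, map_smul, map_add, LinearMap.add_apply,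
        b_symm hQ f a, haf, b_symm hQ f' a, haf', smul_eq_mul]
      ring
    · rw [b_symm hQ, map_sub, map_add, map_smul, haf, haf', b_self hQ, haQ]; simp
    · rw [b_symm hQ, map_sub, map_add, map_smul, hbf, hbf', b_symm hQ b a, hab]; simp
  obtain ⟨d, ⟨hdU, hdP⟩, hdQ⟩ : ∃ d ∈ U ⊓ perp hQ (Submodule.span F {a} ⊔ Submodule.span F {b}), Q d ≠ 0 := by
    by_contra hcon
    push Not at hcon
    set T := U ⊓ perp hQ (Submodule.span F {a} ⊔ Submodule.span F {b}) with hT
    have hpos : 0 < finrank F T := by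
      have := finrank_le_inf_perp hQ U (Submodule.span F {a} ⊔ Submodule.span F {b})
      rw [← hT] at this
      have := finrank_span_pair_le hQ a b
      omega
    obtain ⟨x, hx, hx0⟩ := Submodule.exists_mem_ne_zero_of_ne_bot (p := T) fun h => by
      rw [h, finrank_bot] at hpos; omega
    refine hx0 (hU x hx.1 fun y hy => ?_)
    obtain ⟨hxa, hxb⟩ := (mem_perp_pair hQ).1 hx.2
    have hba : bform hQ b a ≠ 0 := by rwa [b_symm hQ]
    have hy' : y - (bform hQ b y / bform hQ b a) • a - (bform hQ a y / bform hQ a b) • b ∈ T := by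
      refine ⟨U.sub_mem (U.sub_mem hy (U.smul_mem _ ha)) (U.smul_mem _ hb), (mem_perp_pair hQ).2 ⟨?_, ?_⟩⟩
      · rw [map_sub, map_sub, map_smul, map_smul, b_self hQ, haQ, smul_eq_mul, smul_eq_mul,
          div_mul_cancel₀ _ hab]
        ring
      · rw [map_sub, map_sub, map_smul, map_smul, b_self hQ, hbQ, smul_eq_mul, smul_eq_mul,
          div_mul_cancel₀ _ hba]
        ring
    have h1 := b_symm hQ x (y - (bform hQ b y / bform hQ b a) • a - (bform hQ a y / bform hQ a b) • b)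
    have h2 : bform hQ x (y - (bform hQ b y / bform hQ b a) • a - (bform hQ a y / bform hQ a b) • b) = 0 :=
      (le_perp_self hQ hcon hy') x hx
    rw [map_sub, map_sub, map_smul, map_smul, b_symm hQ x a, hxa, b_symm hQ x b, hxb, smul_zero, smul_zero,
      sub_zero, sub_zero] at h2
    rw [b_symm hQ]
    exact h2
  obtain ⟨hda, hdb⟩ := (mem_perp_pair hQ).1 hdP
  refine ⟨-(Q d / bform hQ a b) • a + b + d, U.add_mem (U.add_mem (U.smul_mem _ ha) hb) hdU, ?_, ?_, ?_⟩
  · rw [q_add hQ, q_add hQ, q_smul hQ, haQ, hbQ, map_add, LinearMap.add_apply, map_smul, LinearMap.smul_apply,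
      LinearMap.smul_apply, hda, hdb, smul_eq_mul, smul_eq_mul, neg_mul, div_mul_cancel₀ _ hab]
    ring
  · rw [b_symm hQ, map_add, map_add, map_smul, b_self hQ, haQ, hda]; simpa using hab
  · rw [b_symm hQ, map_add, map_add, map_smul, b_self hQ, hbQ, hdb, b_symm hQ b a, smul_eq_mul, neg_mul,
      div_mul_cancel₀ _ hab]
    simpa using hdQ


/-- The perp of the perp is free of radical. -/
lemma perp_rad_free (hW : ∀ x ∈ W, x ∈ perp hQ W → x = 0) :
    ∀ x ∈ perp hQ W, x ∈ perp hQ (perp hQ W) → x = 0 := by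
  classical
  exact fun x hx hx' => hW x (by rwa [perp_perp hQ] at hx') hx

variable (hMI : M ≤ Cfsg.isometryGroup F Q)
  (hin : ∀ u ∈ perp hQ W, Q u = 0 → ∀ w ∈ perp hQ W, bform hQ u w = 0 → EIn Q M u w)
include hMI hin

/-- A root element of the perp carries a mixed root element to another singular point of the perp. -/
lemma mixed_step {u a v y : ι → F} (hu : u ∈ perp hQ W) (ha : a ∈ perp hQ W) (hv : v ∈ perp hQ W) (hy : y ∈ W)
    (huQ : Q u = 0) (haQ : Q a = 0) (hvQ : Q v = 0) (hua : bform hQ u a ≠ 0)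
    (huv : bform hQ u v = bform hQ u a) (h : EIn Q M a y) : EIn Q M v y := by
  set c := bform hQ u a with hc
  set w := c⁻¹ • (a - v) with hw
  have hwV : w ∈ perp hQ W := Submodule.smul_mem _ _ (Submodule.sub_mem _ ha hv)
  have huw : bform hQ u w = 0 := by rw [hw, map_smul, map_sub, huv, ← hc, sub_self, smul_zero]
  have hy0 : ∀ z ∈ perp hQ W, bform hQ z y = 0 := fun z hz => by rw [b_symm hQ]; exact hz y hy
  have hg := (hin u hu huQ w hwV huw).mem hQ huQ huw
  have h1 := h.conj hQ haQ (hy0 a ha) hg (hMI hg)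
  have hga : (eichler hQ huQ huw : Matrix ι ι F) *ᵥ a = v := by
    rw [eichler_mulVec hQ, hw, q_smul hQ, q_sub hQ, haQ, hvQ, map_smul, LinearMap.smul_apply, map_sub,
      LinearMap.sub_apply, b_self hQ, haQ, b_symm hQ v a, ← hc, smul_smul, mul_inv_cancel₀ hua, one_smul,
      smul_eq_mul]
    have : c⁻¹ ^ 2 * (0 + 0 - bform hQ a v) * c = c⁻¹ * (2 * 0 - bform hQ a v) := by field_simp; ring
    rw [this]
    module
  rwa [hga, eichler_fix hQ huQ huw (hy0 u hu) (hy0 w hwV)] at h1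

/-- One mixed root element gives all scalar multiples at all singular points of the perp. -/
lemma mixed_spread (hW : ∀ x ∈ W, x ∈ perp hQ W → x = 0) (h2 : (2 : F) ≠ 0) (hd3 : 3 ≤ finrank F (perp hQ W))
    {s y : ι → F} (hs : s ∈ perp hQ W) (hy : y ∈ W) (hsQ : Q s = 0) (hs0 : s ≠ 0) (h : EIn Q M s y) :
    ∀ v ∈ perp hQ W, Q v = 0 → ∀ t : F, EIn Q M v (t • y) := by
  have hW' := perp_rad_free hQ hW
  have hy0 : ∀ z ∈ perp hQ W, ∀ t : F, bform hQ z (t • y) = 0 := fun z hz t => by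
    rw [map_smul, b_symm hQ z y, hz y hy, smul_zero]
  -- squares at every point reached
  have hsq : ∀ s ∈ perp hQ W, Q s = 0 → s ≠ 0 → ∀ r : F, EIn Q M s (r • y) → ∀ t : F,
      EIn Q M s ((t ^ 2 * r) • y) := by
    intro s hs hsQ hs0 r hr t
    by_cases ht : t = 0
    · rw [ht, zero_pow two_ne_zero, zero_mul, zero_smul]
      exact ⟨1, M.one_mem, by rw [eichlerMat_zero hQ]; rfl⟩
    obtain ⟨f, hf, hfQ, -, hsf⟩ := exists_singular_partner_mem hQ hW' hs (u := 0) (Submodule.zero_mem _) hsQ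
      (map_zero _) (by simpa using hs0)
    obtain ⟨d, ⟨hdV, hdP⟩, hdQ⟩ : ∃ d ∈ perp hQ W ⊓ perp hQ (Submodule.span F {s} ⊔ Submodule.span F {f}),
        Q d ≠ 0 := by
      obtain ⟨u, hu, huQ, hus, huf⟩ := exists_third hQ hW' hs hf hsQ hfQ hs0
        (fun h0 => by rw [h0, map_zero] at hsf; exact zero_ne_one hsf) hd3
      refine ⟨u - bform hQ u f • s - bform hQ u s • f, ⟨Submodule.sub_mem _ (Submodule.sub_mem _ hu
        (Submodule.smul_mem _ _ hs)) (Submodule.smul_mem _ _ hf), (mem_perp_pair hQ).2 ⟨?_, ?_⟩⟩, ?_⟩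
      · rw [map_sub, map_sub, map_smul, map_smul, b_self hQ, hsQ, hsf, b_symm hQ s u]; simp
      · rw [map_sub, map_sub, map_smul, map_smul, b_self hQ, hfQ, b_symm hQ f s, hsf, b_symm hQ f u]; simp
      · rw [q_sub hQ, q_sub hQ, q_smul hQ, q_smul hQ, huQ, hsQ, hfQ, map_smul, map_smul, map_sub,
          LinearMap.sub_apply, map_smul, LinearMap.smul_apply, hsf]
        simp only [smul_eq_mul]
        intro h0
        exact mul_ne_zero hus huf (by linear_combination -h0)
    obtain ⟨hsd, hfd⟩ := (mem_perp_pair hQ).1 hdP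
    set δ := Q d with hδ
    let uu : F → ι → F := fun t => (-(δ * t ^ 2)) • s + f + t • d
    have huu : ∀ t, uu t ∈ perp hQ W := fun t => Submodule.add_mem _ (Submodule.add_mem _
      (Submodule.smul_mem _ _ hs) hf) (Submodule.smul_mem _ _ hdV)
    have huuQ : ∀ t, Q (uu t) = 0 := fun t => by
      simp only [uu]
      rw [q_add hQ, q_add hQ, q_smul hQ, q_smul hQ, hsQ, hfQ, map_add, LinearMap.add_apply, map_smul,
        LinearMap.smul_apply, map_smul, map_smul, LinearMap.smul_apply, hsd, hfd, hsf]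
      simp only [smul_eq_mul, ← hδ]
      ring
    have huus : ∀ t, bform hQ (uu t) s = 1 := fun t => by
      simp only [uu]
      rw [map_add, map_add, LinearMap.add_apply, LinearMap.add_apply, map_smul, LinearMap.smul_apply, map_smul,
        LinearMap.smul_apply, b_self hQ, hsQ, b_symm hQ f s, hsf, b_symm hQ d s, hsd]
      simp
    have huuf : ∀ t, bform hQ (uu t) f = -(δ * t ^ 2) := fun t => by
      simp only [uu]
      rw [map_add, map_add, LinearMap.add_apply, LinearMap.add_apply, map_smul, LinearMap.smul_apply, map_smul,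
        LinearMap.smul_apply, b_self hQ, hfQ, hsf, b_symm hQ d f, hfd]
      simp
    have hc : δ * (1 : F) ^ 2 ≠ 0 := by simpa using hdQ
    have hstep1 : EIn Q M ((-δ⁻¹) • f) (r • y) := by
      refine mixed_step hQ hMI hin (huu 1) hs (Submodule.smul_mem _ _ hf) (W.smul_mem _ hy) (huuQ 1) hsQ
        (by rw [q_smul hQ, hfQ, mul_zero]) (by rw [huus]; exact one_ne_zero) ?_ hr
      rw [map_smul, huuf, huus, smul_eq_mul]
      field_simp
    have hstep2 : EIn Q M ((t ^ 2) • s) (r • y) := by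
      refine mixed_step hQ hMI hin (huu t) (Submodule.smul_mem _ _ hf) (Submodule.smul_mem _ _ hs) (W.smul_mem _ hy)
        (huuQ t) (by rw [q_smul hQ, hfQ, mul_zero]) (by rw [q_smul hQ, hsQ, mul_zero]) ?_ ?_ hstep1
      · rw [map_smul, huuf, smul_eq_mul]
        exact mul_ne_zero (by simpa using hdQ) (by simpa using ⟨hdQ, ht⟩)
      · rw [map_smul, map_smul, huuf, huus, smul_eq_mul, smul_eq_mul]
        field_simp
    obtain ⟨g, hg, e⟩ := hstep2
    exact ⟨g, hg, by rw [e, eichlerMat_smul_left hQ, smul_smul]⟩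
  intro v hv hvQ t
  by_cases hv0 : v = 0
  · exact ⟨1, M.one_mem, by rw [hv0, eichlerMat_zero_left hQ]; rfl⟩
  -- some multiple at `v`
  obtain ⟨u, hu, huQ, hus, huv⟩ := exists_third hQ hW' hs hv hsQ hvQ hs0 hv0 hd3
  set c := bform hQ u s / bform hQ u v with hc
  have hc0 : c ≠ 0 := div_ne_zero hus huv
  have h1 : EIn Q M (c • v) y := mixed_step hQ hMI hin hu hs (Submodule.smul_mem _ _ hv) hy huQ hsQ
    (by rw [q_smul hQ, hvQ, mul_zero]) hus (by rw [map_smul, smul_eq_mul, hc, div_mul_cancel₀ _ huv]) h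
  have h1' : EIn Q M v (c • y) := by
    obtain ⟨g, hg, e⟩ := h1
    exact ⟨g, hg, by rw [e, eichlerMat_smul_left hQ]⟩
  -- polarise the squares
  set k := t / (2 * c) with hk
  have hA := hsq v hv hvQ hv0 c h1' (k + 1)
  have hB := hsq v hv hvQ hv0 c h1' k
  have h3 := (hA.sub hQ hB hvQ (hy0 v hv _) (hy0 v hv _)).sub hQ h1' hvQ
    (by rw [map_sub, hy0 v hv, hy0 v hv, sub_zero]) (hy0 v hv _)
  convert h3 using 1
  rw [← sub_smul, ← sub_smul]
  congr 1
  have : t = k * (2 * c) := by rw [hk, div_mul_cancel₀ _ (mul_ne_zero h2 hc0)]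
  rw [this]
  ring

variable (hPM : subspaceStabilizer W ⊓ omegaGL Q ≤ M)
include hPM

/-- The mixed root elements fill the whole subspace. -/
lemma mixed_fill_all (hW : ∀ x ∈ W, x ∈ perp hQ W → x = 0) (h2 : (2 : F) ≠ 0) (hn : 5 ≤ Fintype.card ι)
    (hk : 3 ≤ finrank F W) (hd3 : 3 ≤ finrank F (perp hQ W))
    {s y : ι → F} (hs : s ∈ perp hQ W) (hy : y ∈ W) (hy0 : y ≠ 0) (hsQ : Q s = 0) (hs0 : s ≠ 0)
    (h : EIn Q M s y) : ∀ v ∈ perp hQ W, Q v = 0 → ∀ z ∈ W, EIn Q M v z := by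
  classical
  have hzero : ∀ z ∈ perp hQ W, ∀ w ∈ W, bform hQ z w = 0 := fun z hz w hw => by rw [b_symm hQ]; exact hz w hw
  let A : Submodule F (ι → F) :=
    { carrier := {z | z ∈ W ∧ ∀ v ∈ perp hQ W, Q v = 0 → EIn Q M v z}
      zero_mem' := ⟨W.zero_mem, fun v _ _ => ⟨1, M.one_mem, by rw [eichlerMat_zero hQ]; rfl⟩⟩
      add_mem' := fun {a b} ha hb => ⟨W.add_mem ha.1 hb.1, fun v hv hvQ =>
        (ha.2 v hv hvQ).add hQ (hb.2 v hv hvQ) hvQ (hzero v hv a ha.1) (hzero v hv b hb.1)⟩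
      smul_mem' := fun c a ha => ⟨W.smul_mem c ha.1, fun v hv hvQ => by
        obtain ⟨g, hg, e⟩ := ha.2 (c • v) (Submodule.smul_mem _ _ hv) (by rw [q_smul hQ, hvQ, mul_zero])
        exact ⟨g, hg, by rw [e, eichlerMat_smul_left hQ]⟩⟩ }
  have hyA : y ∈ A := ⟨hy, fun v hv hvQ => by
    simpa using mixed_spread hQ hMI hin hW h2 hd3 hs hy hsQ hs0 h v hv hvQ 1⟩
  suffices hWA : W ≤ A from fun v hv hvQ z hz => (hWA hz).2 v hv hvQ
  have hdisp : ∀ {a b z : ι → F}, z ∈ A → ∀ (ha : Q a = 0) (hab : bform hQ a b = 0), a ∈ W → b ∈ W →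
      (eichler hQ ha hab : Matrix ι ι F) *ᵥ z - z ∈ A := by
    intro a b z hz ha hab haW hbW
    have hmem : ∀ x ∈ W, (eichler hQ ha hab : Matrix ι ι F) *ᵥ x ∈ W := fun x hx => by
      rw [eichler_mulVec hQ]
      exact W.sub_mem (W.sub_mem (W.add_mem hx (W.smul_mem _ haW)) (W.smul_mem _ hbW)) (W.smul_mem _ haW)
    have hgM : eichler hQ ha hab ∈ M := hPM ⟨mem_subspaceStabilizer_of_le hmem, eichler_mem_omega hQ hn ha hab⟩
    refine ⟨W.sub_mem (hmem z hz.1) hz.1, fun v hv hvQ => ?_⟩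
    exact (hz.2 v hv hvQ).displacement hQ hvQ (hzero v hv z hz.1) hgM (hMI hgM)
      (eichler_fix hQ ha hab (hv a haW) (hv b hbW))
  have hTn : ∀ x ∈ W, x ≠ 0 → ∃ z ∈ W, bform hQ x z ≠ 0 := fun x hx hx0 => by
    obtain ⟨z, hz, hzx⟩ := exists_mem_b_ne_zero hQ (fun h => hx0 (hW x hx h))
    exact ⟨z, hz, by rw [b_symm hQ]; exact hzx⟩
  have hstep : ∀ z ∈ A, ∀ a ∈ W, Q a = 0 → bform hQ a z ≠ 0 → a ∈ A := by
    intro z hz a ha haQ haz
    obtain ⟨w, ⟨hwW, hwP⟩, hwN⟩ : ∃ w ∈ W ⊓ perp hQ (Submodule.span F {a}), w ∉ Submodule.span F {a} := by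
      refine SetLike.not_le_iff_exists.1 fun hle => ?_
      have := Submodule.finrank_mono hle
      have := finrank_le_inf_perp hQ W (Submodule.span F {a})
      have h4 : finrank F (Submodule.span F ({a} : Set (ι → F))) ≤ 1 := (finrank_span_le_card _).trans (by simp)
      omega
    have haw : bform hQ a w = 0 := (mem_perp_span_singleton hQ).1 hwP
    obtain ⟨w', hw', hw'a, hww'⟩ := exists_b_one_mem hQ (S := W) (T := Submodule.span F {a}) (v := w) (by
      intro hm
      obtain ⟨t, ht, u, hu, e⟩ := Submodule.mem_sup.1 hm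
      have htW : t ∈ W := (Submodule.span_singleton_le_iff_mem _ _).2 ha ht
      have hu0 : u = 0 := hW u (by rw [eq_sub_of_add_eq' e]; exact W.sub_mem hwW htW) hu
      rw [hu0, add_zero] at e
      exact hwN (e ▸ ht))
    have haw' : bform hQ a w' = 0 := (mem_perp_span_singleton hQ).1 hw'a
    have haws : bform hQ a (w + w') = 0 := by rw [map_add, haw, haw', add_zero]
    have h1 := A.sub_mem (A.add_mem (hdisp hz haQ haw ha hwW) (hdisp hz haQ haw' ha hw'))
      (hdisp hz haQ haws ha (W.add_mem hwW hw'))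
    simp only [eichler_mulVec hQ] at h1
    refine (A.smul_mem_iff haz).1 ?_
    convert h1 using 1
    rw [q_add hQ, hww', map_add, LinearMap.add_apply]
    module
  have hsing : ∀ a ∈ W, Q a = 0 → a ∈ A := by
    intro a ha haQ
    by_cases ha0 : a = 0
    · rw [ha0]; exact A.zero_mem
    by_cases hay : bform hQ a y ≠ 0
    · exact hstep y hyA a ha haQ hay
    obtain ⟨e, he, heQ, hey⟩ := exists_singular_b_ne_zero hQ hk hy hTn hy0
    have heA := hstep y hyA e he heQ hey
    have he0 : e ≠ 0 := fun h0 => hey (by rw [h0, map_zero, LinearMap.zero_apply])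
    obtain ⟨g, hg, hgQ, hga, hge⟩ := exists_third hQ hW ha he haQ heQ ha0 he0 hk
    exact hstep g (hstep e heA g hg hgQ hge) a ha haQ (by rw [b_symm hQ]; exact hga)
  intro w hw
  obtain ⟨a, ha, b, hb, haQ, hbQ, rfl⟩ := exists_two_singular hQ hW hk hw
  exact A.add_mem (hsing a ha haQ) (hsing b hb hbQ)

end CfsgLib.OrthNondeg17
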